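import Mathlib
import Cfsg.Agent.Lib.Helper18.AutPSp.Gen2

set_option autoImplicit false

/-!
The exceptional endomorphism of `Sp_4(F)` in characteristic two: the action on
`J^⊥ / J` inside the exterior square of the natural module.
-/

namespace Cfsg.Agent.Lib.Helper18.AutPSp

open Matrix Cfsg.Agent.Lib.Helper17

variable {F : Type*} [Field F]

theorem ext4 {x y : V 2 F} (h1 : x (Sum.inl 0) = y (Sum.inl 0)) (h2 : x (Sum.inl 1) = y (Sum.inl 1))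
    (h3 : x (Sum.inr 0) = y (Sum.inr 0)) (h4 : x (Sum.inr 1) = y (Sum.inr 1)) : x = y := by
  funext i
  rcases i with i | i <;> fin_cases i <;> assumption

theorem B4 (x y : V 2 F) : B x y = x (Sum.inr 0) * y (Sum.inl 0) - x (Sum.inl 0) * y (Sum.inr 0)
    + x (Sum.inr 1) * y (Sum.inl 1) - x (Sum.inl 1) * y (Sum.inr 1) := by
  simp [B, Cfsg.sympForm, Matrix.J, dotProduct, mulVec, Fintype.sum_sum_type, Fin.sum_univ_two,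
    Matrix.one_apply]
  ring

theorem ac4 (g : Sp 2 F) (x : V 2 F) (c : Fin 2 ⊕ Fin 2) :
    (g ∙ x) c = g.1 c (Sum.inl 0) * x (Sum.inl 0) + g.1 c (Sum.inl 1) * x (Sum.inl 1)
      + g.1 c (Sum.inr 0) * x (Sum.inr 0) + g.1 c (Sum.inr 1) * x (Sum.inr 1) := by
  simp [ac, dotProduct, mulVec, Fintype.sum_sum_type, Fin.sum_univ_two]
  ring

theorem ac_eb_apply (g : Sp 2 F) (j : Fin 2) (c : Fin 2 ⊕ Fin 2) : (g ∙ eb j) c = g.1 c (Sum.inl j) := by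
  simp [ac, eb]

theorem ac_fb_apply (g : Sp 2 F) (j : Fin 2) (c : Fin 2 ⊕ Fin 2) : (g ∙ fb j) c = g.1 c (Sum.inr j) := by
  simp [ac, fb]

/-- the rows of a symplectic matrix form a symplectic basis -/
theorem row_rel (g : Sp 2 F) (c d : Fin 2 ⊕ Fin 2) :
    g.1 c (Sum.inr 0) * g.1 d (Sum.inl 0) - g.1 c (Sum.inl 0) * g.1 d (Sum.inr 0)
      + g.1 c (Sum.inr 1) * g.1 d (Sum.inl 1) - g.1 c (Sum.inl 1) * g.1 d (Sum.inr 1)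
      = B (Pi.single c 1 : V 2 F) (Pi.single d 1) := by
  have h := B_ac (⟨g.1ᵀ, SymplecticGroup.transpose_mem g.2⟩ : Sp 2 F) (Pi.single c 1) (Pi.single d 1)
  rw [← h, B4]
  simp [ac]

/-- the wedge of two vectors, projected to four coordinates -/
def wd (x y : V 2 F) : V 2 F :=
  Sum.elim ![x (Sum.inl 0) * y (Sum.inl 1) - x (Sum.inl 1) * y (Sum.inl 0),
             x (Sum.inl 0) * y (Sum.inr 1) - x (Sum.inr 1) * y (Sum.inl 0)]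
           ![x (Sum.inr 0) * y (Sum.inr 1) - x (Sum.inr 1) * y (Sum.inr 0),
             x (Sum.inl 1) * y (Sum.inr 0) - x (Sum.inr 0) * y (Sum.inl 1)]

theorem wd_1 (x y : V 2 F) :
    wd x y (Sum.inl 0) = x (Sum.inl 0) * y (Sum.inl 1) - x (Sum.inl 1) * y (Sum.inl 0) := rfl
theorem wd_2 (x y : V 2 F) :
    wd x y (Sum.inl 1) = x (Sum.inl 0) * y (Sum.inr 1) - x (Sum.inr 1) * y (Sum.inl 0) := rfl
theorem wd_3 (x y : V 2 F) :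
    wd x y (Sum.inr 0) = x (Sum.inr 0) * y (Sum.inr 1) - x (Sum.inr 1) * y (Sum.inr 0) := rfl
theorem wd_4 (x y : V 2 F) :
    wd x y (Sum.inr 1) = x (Sum.inl 1) * y (Sum.inr 0) - x (Sum.inr 0) * y (Sum.inl 1) := rfl

theorem wd_add_left (x x' y : V 2 F) : wd (x + x') y = wd x y + wd x' y := by
  apply ext4 <;> simp only [wd_1, wd_2, wd_3, wd_4, Pi.add_apply] <;> ring
theorem wd_add_right (x y y' : V 2 F) : wd x (y + y') = wd x y + wd x y' := by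
  apply ext4 <;> simp only [wd_1, wd_2, wd_3, wd_4, Pi.add_apply] <;> ring
theorem wd_smul_left (a : F) (x y : V 2 F) : wd (a • x) y = a • wd x y := by
  apply ext4 <;> simp only [wd_1, wd_2, wd_3, wd_4, Pi.smul_apply, smul_eq_mul] <;> ring
theorem wd_smul_right (a : F) (x y : V 2 F) : wd x (a • y) = a • wd x y := by
  apply ext4 <;> simp only [wd_1, wd_2, wd_3, wd_4, Pi.smul_apply, smul_eq_mul] <;> ring
theorem wd_self (x : V 2 F) : wd x x = 0 := by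
  apply ext4 <;> simp only [wd_1, wd_2, wd_3, wd_4, Pi.zero_apply] <;> ring
theorem wd_swap (x y : V 2 F) : wd x y = - wd y x := by
  apply ext4 <;> simp only [wd_1, wd_2, wd_3, wd_4, Pi.neg_apply] <;> ring

theorem wd_comm [CharP F 2] (x y : V 2 F) : wd x y = wd y x := by
  rw [wd_swap, CharTwo.neg_eq]

theorem I1_ring {R : Type*} [CommRing R] (h2 : (2 : R) = 0) (a1 a2 a3 a4 b1 b2 b3 b4 c1 c2 c3 c4 d1 d2 d3 d4 : R)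
    (hab : a3 * b1 - a1 * b3 + a4 * b2 - a2 * b4 = 0) (hcd : c3 * d1 - c1 * d3 + c4 * d2 - c2 * d4 = 0) :
    (a3 * b4 - a4 * b3) * (c1 * d2 - c2 * d1) - (a1 * b2 - a2 * b1) * (c3 * d4 - c4 * d3)
      + (a2 * b3 - a3 * b2) * (c1 * d4 - c4 * d1) - (a1 * b4 - a4 * b1) * (c2 * d3 - c3 * d2)
    = (a3 * c1 - a1 * c3 + a4 * c2 - a2 * c4) * (b3 * d1 - b1 * d3 + b4 * d2 - b2 * d4)
      + (a3 * d1 - a1 * d3 + a4 * d2 - a2 * d4) * (b3 * c1 - b1 * c3 + b4 * c2 - b2 * c4) := by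
  linear_combination (a1 * b3 - a3 * b1) * hcd
    + (c1 * d3 - c3 * d1 + (c3 * d1 - c1 * d3 + c4 * d2 - c2 * d4)) * hab
    + ((-1)*a1*b1*c3*d3 + (-1)*a1*b2*c3*d4 + a1*b3*c1*d3 + a1*b4*c3*d2 + (-1)*a2*b1*c4*d3 + (-1)*a2*b2*c4*d4 + a2*b3*c1*d4 + a2*b4*c4*d2 + a3*b1*c3*d1 + a3*b2*c4*d1 + (-1)*a3*b3*c1*d1 + (-1)*a3*b4*c2*d1 + a4*b1*c2*d3 + a4*b2*c2*d4 + (-1)*a4*b3*c1*d2 + (-1)*a4*b4*c2*d2) * h2

theorem B_wd [CharP F 2] {a b c d : V 2 F} (hab : B a b = 0) (hcd : B c d = 0) :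
    B (wd a b) (wd c d) = B a c * B b d + B a d * B b c := by
  have h2 : (2 : F) = 0 := CharTwo.two_eq_zero
  rw [B4] at hab hcd
  simp only [B4, wd_1, wd_2, wd_3, wd_4]
  exact I1_ring h2 _ _ _ _ _ _ _ _ _ _ _ _ _ _ _ _ hab hcd

/-- the Frobenius twist of a vector -/
def sqv (x : V 2 F) : V 2 F := fun i => x i ^ 2

theorem sqv_apply (x : V 2 F) (i : Fin 2 ⊕ Fin 2) : sqv x i = x i ^ 2 := rfl

theorem wd_wd [CharP F 2] {a b c : V 2 F} (hab : B a b = 0) (hac : B a c = 0) :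
    wd (wd a b) (wd a c) = B b c • sqv a := by
  have h2 : (2 : F) = 0 := CharTwo.two_eq_zero
  rw [B4] at hab hac
  apply ext4 <;> simp only [wd_1, wd_2, wd_3, wd_4, B4, sqv_apply, Pi.smul_apply, smul_eq_mul]
  · linear_combination (a (Sum.inl 0) * c (Sum.inl 0)) * hab + (a (Sum.inl 0) * b (Sum.inl 0)) * hac + (a (Sum.inl 0) * a (Sum.inl 1) * b (Sum.inr 1) * c (Sum.inl 0) + (-1) * a (Sum.inl 0) * a (Sum.inr 0) * b (Sum.inl 0) * c (Sum.inl 0) + (-1) * a (Sum.inl 0) * a (Sum.inr 1) * b (Sum.inl 1) * c (Sum.inl 0) + a (Sum.inl 0) ^ 2 * b (Sum.inl 0) * c (Sum.inr 0) + a (Sum.inl 0) ^ 2 * b (Sum.inl 1) * c (Sum.inr 1) + (-1) * a (Sum.inl 0) ^ 2 * b (Sum.inr 1) * c (Sum.inl 1)) * h2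
  · linear_combination (a (Sum.inl 1) * c (Sum.inl 1)) * hab + (a (Sum.inl 1) * b (Sum.inl 1)) * hac + (a (Sum.inl 0) * a (Sum.inl 1) * b (Sum.inl 1) * c (Sum.inr 0) + (-1) * a (Sum.inl 1) * a (Sum.inr 0) * b (Sum.inl 1) * c (Sum.inl 0) + (-1) * a (Sum.inl 1) * a (Sum.inr 1) * b (Sum.inl 1) * c (Sum.inl 1) + a (Sum.inl 1) ^ 2 * b (Sum.inl 1) * c (Sum.inr 1)) * h2
  · linear_combination (a (Sum.inr 0) * c (Sum.inr 0)) * hab + (a (Sum.inr 0) * b (Sum.inr 0)) * hac + (a (Sum.inl 0) * a (Sum.inr 0) * b (Sum.inr 0) * c (Sum.inr 0) + a (Sum.inl 1) * a (Sum.inr 0) * b (Sum.inr 1) * c (Sum.inr 0) + (-1) * a (Sum.inr 0) * a (Sum.inr 1) * b (Sum.inl 1) * c (Sum.inr 0) + a (Sum.inr 0) ^ 2 * b (Sum.inl 1) * c (Sum.inr 1) + (-1) * a (Sum.inr 0) ^ 2 * b (Sum.inr 0) * c (Sum.inl 0) + (-1) * a (Sum.inr 0) ^ 2 * b (Sum.inr 1) * c (Sum.inl 1))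 * h2
  · linear_combination (a (Sum.inr 1) * c (Sum.inr 1)) * hab + (a (Sum.inr 1) * b (Sum.inr 1)) * hac + (a (Sum.inl 0) * a (Sum.inr 1) * b (Sum.inr 0) * c (Sum.inr 1) + a (Sum.inl 1) * a (Sum.inr 1) * b (Sum.inr 1) * c (Sum.inr 1) + (-1) * a (Sum.inr 0) * a (Sum.inr 1) * b (Sum.inl 0) * c (Sum.inr 1) + a (Sum.inr 1) ^ 2 * b (Sum.inl 0) * c (Sum.inr 0) + (-1) * a (Sum.inr 1) ^ 2 * b (Sum.inr 0) * c (Sum.inl 0) + (-1) * a (Sum.inr 1) ^ 2 * b (Sum.inr 1) * c (Sum.inl 1)) * h2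

/-! ### the endomorphism -/

/-- the linear map induced on `J^⊥ / J` -/
def gamL (g : Sp 2 F) : V 2 F →ₗ[F] V 2 F where
  toFun x := x (Sum.inl 0) • wd (g ∙ eb 0) (g ∙ eb 1) + x (Sum.inl 1) • wd (g ∙ eb 0) (g ∙ fb 1)
     + x (Sum.inr 0) • wd (g ∙ fb 0) (g ∙ fb 1) + x (Sum.inr 1) • wd (g ∙ eb 1) (g ∙ fb 0)
  map_add' x y := by simp only [Pi.add_apply]; module
  map_smul' a x := by simp only [Pi.smul_apply, smul_eq_mul, RingHom.id_apply]; module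

theorem gamL_apply (g : Sp 2 F) (x : V 2 F) : gamL g x =
    x (Sum.inl 0) • wd (g ∙ eb 0) (g ∙ eb 1) + x (Sum.inl 1) • wd (g ∙ eb 0) (g ∙ fb 1)
     + x (Sum.inr 0) • wd (g ∙ fb 0) (g ∙ fb 1) + x (Sum.inr 1) • wd (g ∙ eb 1) (g ∙ fb 0) := rfl

theorem zero_ne_one_fin2 : (0 : Fin 2) ≠ 1 := by decide

theorem B_gamL [CharP F 2] (g : Sp 2 F) (x y : V 2 F) : B (gamL g x) (gamL g y) = B x y := by
  have h2 : (2 : F) = 0 := CharTwo.two_eq_zero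
  have h01 := zero_ne_one_fin2
  have a1 : B (g ∙ (eb 0 : V 2 F)) (g ∙ eb 1) = 0 := by rw [B_ac, B_eb_eb]
  have a2 : B (g ∙ (eb 0 : V 2 F)) (g ∙ fb 1) = 0 := by rw [B_ac, B_eb_fb_ne h01]
  have a3 : B (g ∙ (fb 0 : V 2 F)) (g ∙ fb 1) = 0 := by rw [B_ac, B_fb_fb]
  have a4 : B (g ∙ (eb 1 : V 2 F)) (g ∙ fb 0) = 0 := by rw [B_ac, B_eb_fb_ne h01.symm]
  rw [gamL_apply, gamL_apply]
  simp only [B_add_left, B_add_right, B_smul_left, B_smul_right, B_wd a1 a1, B_wd a1 a2, B_wd a1 a3,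
    B_wd a1 a4, B_wd a2 a1, B_wd a2 a2, B_wd a2 a3, B_wd a2 a4, B_wd a3 a1, B_wd a3 a2, B_wd a3 a3,
    B_wd a3 a4, B_wd a4 a1, B_wd a4 a2, B_wd a4 a3, B_wd a4 a4, B_ac, B_eb_eb, B_fb_fb, B_eb_fb,
    B_fb_eb, B_eb_fb_ne h01, B_eb_fb_ne h01.symm, B_fb_eb_ne h01, B_fb_eb_ne h01.symm]
  rw [B4]
  linear_combination (x (Sum.inl 0) * y (Sum.inr 0) - x (Sum.inr 1) * y (Sum.inl 1)) * h2

/-- the exceptional endomorphism of `Sp_4(F)` -/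
noncomputable def gam0 [CharP F 2] (g : Sp 2 F) : Sp 2 F := mkSp (gamL g) (B_gamL g)

theorem ac_gam0 [CharP F 2] (g : Sp 2 F) (x : V 2 F) : gam0 g ∙ x =
    x (Sum.inl 0) • wd (g ∙ eb 0) (g ∙ eb 1) + x (Sum.inl 1) • wd (g ∙ eb 0) (g ∙ fb 1)
     + x (Sum.inr 0) • wd (g ∙ fb 0) (g ∙ fb 1) + x (Sum.inr 1) • wd (g ∙ eb 1) (g ∙ fb 0) := by
  rw [gam0, ac_mkSp, gamL_apply]

theorem gam0_wd [CharP F 2] (g : Sp 2 F) {x y : V 2 F} (hxy : B x y = 0) :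
    gam0 g ∙ wd x y = wd (g ∙ x) (g ∙ y) := by
  have h2 : (2 : F) = 0 := CharTwo.two_eq_zero
  have h01 := zero_ne_one_fin2
  have hR1 := row_rel g (Sum.inl 0) (Sum.inl 1)
  rw [show B (Pi.single (Sum.inl 0) 1 : V 2 F) (Pi.single (Sum.inl 1) 1) = 0 from B_eb_eb 0 1] at hR1
  have hR2 := row_rel g (Sum.inl 0) (Sum.inr 1)
  rw [show B (Pi.single (Sum.inl 0) 1 : V 2 F) (Pi.single (Sum.inr 1) 1) = 0 from B_eb_fb_ne h01] at hR2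
  have hR3 := row_rel g (Sum.inr 0) (Sum.inr 1)
  rw [show B (Pi.single (Sum.inr 0) 1 : V 2 F) (Pi.single (Sum.inr 1) 1) = 0 from B_fb_fb 0 1] at hR3
  have hR4 := row_rel g (Sum.inl 1) (Sum.inr 0)
  rw [show B (Pi.single (Sum.inl 1) 1 : V 2 F) (Pi.single (Sum.inr 0) 1) = 0 from B_eb_fb_ne h01.symm] at hR4
  rw [B4] at hxy
  rw [ac_gam0]
  apply ext4 <;> simp only [wd_1, wd_2, wd_3, wd_4, Pi.add_apply, Pi.smul_apply, smul_eq_mul,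
    ac_eb_apply, ac_fb_apply] <;> simp only [ac4]
  · linear_combination (g.1 (Sum.inl 0) (Sum.inl 1) * g.1 (Sum.inl 1) (Sum.inr 1) + (-1) * g.1 (Sum.inl 0) (Sum.inr 1) * g.1 (Sum.inl 1) (Sum.inl 1)) * hxy + (x (Sum.inl 0) * y (Sum.inr 0) + (-1) * x (Sum.inr 0) * y (Sum.inl 0)) * hR1 + (g.1 (Sum.inl 0) (Sum.inl 1) * g.1 (Sum.inl 1) (Sum.inr 1) * x (Sum.inl 0) * y (Sum.inr 0) + (-1) * g.1 (Sum.inl 0) (Sum.inl 1) * g.1 (Sum.inl 1) (Sum.inr 1) * x (Sum.inr 0) * y (Sum.inl 0) + (-1) * g.1 (Sum.inl 0) (Sum.inr 1) * g.1 (Sum.inl 1) (Sum.inl 1) * x (Sum.inl 0) * y (Sum.inr 0) + g.1 (Sum.inl 0) (Sum.inr 1) * g.1 (Sum.inl 1) (Sum.inl 1) * x (Sum.inr 0) * y (Sum.inl 0)) * h2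
  · linear_combination (g.1 (Sum.inl 0) (Sum.inl 1) * g.1 (Sum.inr 1) (Sum.inr 1) + (-1) * g.1 (Sum.inl 0) (Sum.inr 1) * g.1 (Sum.inr 1) (Sum.inl 1)) * hxy + (x (Sum.inl 0) * y (Sum.inr 0) + (-1) * x (Sum.inr 0) * y (Sum.inl 0)) * hR2 + (g.1 (Sum.inl 0) (Sum.inl 1) * g.1 (Sum.inr 1) (Sum.inr 1) * x (Sum.inl 0) * y (Sum.inr 0) + (-1) * g.1 (Sum.inl 0) (Sum.inl 1) * g.1 (Sum.inr 1) (Sum.inr 1) * x (Sum.inr 0) * y (Sum.inl 0) + (-1) * g.1 (Sum.inl 0) (Sum.inr 1) * g.1 (Sum.inr 1) (Sum.inl 1) * x (Sum.inl 0) * y (Sum.inr 0) + g.1 (Sum.inl 0) (Sum.inr 1) * g.1 (Sum.inr 1) (Sum.inl 1) * x (Sum.inr 0) * y (Sum.inl 0)) * h2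
  · linear_combination (g.1 (Sum.inr 0) (Sum.inl 1) * g.1 (Sum.inr 1) (Sum.inr 1) + (-1) * g.1 (Sum.inr 0) (Sum.inr 1) * g.1 (Sum.inr 1) (Sum.inl 1)) * hxy + (x (Sum.inl 0) * y (Sum.inr 0) + (-1) * x (Sum.inr 0) * y (Sum.inl 0)) * hR3 + (g.1 (Sum.inr 0) (Sum.inl 1) * g.1 (Sum.inr 1) (Sum.inr 1) * x (Sum.inl 0) * y (Sum.inr 0) + (-1) * g.1 (Sum.inr 0) (Sum.inl 1) * g.1 (Sum.inr 1) (Sum.inr 1) * x (Sum.inr 0) * y (Sum.inl 0) + (-1) * g.1 (Sum.inr 0) (Sum.inr 1) * g.1 (Sum.inr 1) (Sum.inl 1) * x (Sum.inl 0) * y (Sum.inr 0) + g.1 (Sum.inr 0) (Sum.inr 1) * g.1 (Sum.inr 1) (Sum.inl 1) * x (Sum.inr 0) * y (Sum.inl 0)) * h2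
  · linear_combination (g.1 (Sum.inl 1) (Sum.inl 1) * g.1 (Sum.inr 0) (Sum.inr 1) + (-1) * g.1 (Sum.inl 1) (Sum.inr 1) * g.1 (Sum.inr 0) (Sum.inl 1)) * hxy + (x (Sum.inl 0) * y (Sum.inr 0) + (-1) * x (Sum.inr 0) * y (Sum.inl 0)) * hR4 + (g.1 (Sum.inl 1) (Sum.inl 1) * g.1 (Sum.inr 0) (Sum.inr 1) * x (Sum.inl 0) * y (Sum.inr 0) + (-1) * g.1 (Sum.inl 1) (Sum.inl 1) * g.1 (Sum.inr 0) (Sum.inr 1) * x (Sum.inr 0) * y (Sum.inl 0) + (-1) * g.1 (Sum.inl 1) (Sum.inr 1) * g.1 (Sum.inr 0) (Sum.inl 1) * x (Sum.inl 0) * y (Sum.inr 0) + g.1 (Sum.inl 1) (Sum.inr 1) * g.1 (Sum.inr 0) (Sum.inl 1) * x (Sum.inr 0) * y (Sum.inl 0)) * h2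

end Cfsg.Agent.Lib.Helper18.AutPSp
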