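import Mathlib
import Cfsg.Agent.Lib.Helper18.Sp4.Wedge
import Cfsg.Agent.Lib.Helper1.PSpAut.Main

set_option autoImplicit false

/-!
The exceptional automorphism of `Sp_4(F)`, `F` perfect of characteristic two: its square is the
Frobenius field automorphism, and it maps long root elements to short root elements.
-/

namespace Cfsg.Agent.Lib.Helper18.AutPSp

open Matrix Cfsg.Agent.Lib.Helper17

variable {F : Type*} [Field F] [CharP F 2]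

theorem gam0_mul (g h : Sp 2 F) : gam0 (g * h) = gam0 g * gam0 h := by
  apply sp_ext
  intro x
  have h01 := zero_ne_one_fin2
  rw [ac_mul, ac_gam0 h, ac_gam0 (g * h)]
  simp only [ac_add, ac_smul, ac_mul]
  rw [gam0_wd g (by rw [B_ac, B_eb_eb]), gam0_wd g (by rw [B_ac, B_eb_fb_ne h01]),
    gam0_wd g (by rw [B_ac, B_fb_fb]), gam0_wd g (by rw [B_ac, B_eb_fb_ne h01.symm])]

/-- the exceptional endomorphism as a homomorphism -/
noncomputable def gam : Sp 2 F →* Sp 2 F := MonoidHom.mk' gam0 gam0_mul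

theorem gam_apply (g : Sp 2 F) : gam g = gam0 g := rfl

theorem gam0_eb0 (g : Sp 2 F) : gam0 g ∙ eb 0 = wd (g ∙ eb 0) (g ∙ eb 1) := by
  rw [ac_gam0]; simp [eb]
theorem gam0_eb1 (g : Sp 2 F) : gam0 g ∙ eb 1 = wd (g ∙ eb 0) (g ∙ fb 1) := by
  rw [ac_gam0]; simp [eb]
theorem gam0_fb0 (g : Sp 2 F) : gam0 g ∙ fb 0 = wd (g ∙ fb 0) (g ∙ fb 1) := by
  rw [ac_gam0]; simp [fb]
theorem gam0_fb1 (g : Sp 2 F) : gam0 g ∙ fb 1 = wd (g ∙ eb 1) (g ∙ fb 0) := by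
  rw [ac_gam0]; simp [fb]

theorem ac_gam0_gam0 (g : Sp 2 F) (x : V 2 F) : gam0 (gam0 g) ∙ x =
    x (Sum.inl 0) • sqv (g ∙ eb 0) + x (Sum.inl 1) • sqv (g ∙ eb 1)
     + x (Sum.inr 0) • sqv (g ∙ fb 0) + x (Sum.inr 1) • sqv (g ∙ fb 1) := by
  have h01 := zero_ne_one_fin2
  have hm1 : (-1 : F) = 1 := CharTwo.neg_eq 1
  have e1 : wd (wd (g ∙ eb 0) (g ∙ eb 1)) (wd (g ∙ (eb 0 : V 2 F)) (g ∙ fb 1)) = sqv (g ∙ eb 0) := by
    rw [wd_wd (by rw [B_ac, B_eb_eb]) (by rw [B_ac, B_eb_fb_ne h01]), B_ac, B_eb_fb, hm1, one_smul]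
  have e2 : wd (wd (g ∙ eb 0) (g ∙ eb 1)) (wd (g ∙ (eb 1 : V 2 F)) (g ∙ fb 0)) = sqv (g ∙ eb 1) := by
    rw [wd_comm (g ∙ eb 0) (g ∙ eb 1),
      wd_wd (by rw [B_ac, B_eb_eb]) (by rw [B_ac, B_eb_fb_ne h01.symm]), B_ac, B_eb_fb, hm1, one_smul]
  have e3 : wd (wd (g ∙ fb 0) (g ∙ fb 1)) (wd (g ∙ (eb 1 : V 2 F)) (g ∙ fb 0)) = sqv (g ∙ fb 0) := by
    rw [wd_comm (g ∙ eb 1) (g ∙ fb 0),
      wd_wd (by rw [B_ac, B_fb_fb]) (by rw [B_ac, B_fb_eb_ne h01]), B_ac, B_fb_eb, one_smul]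
  have e4 : wd (wd (g ∙ eb 0) (g ∙ fb 1)) (wd (g ∙ (fb 0 : V 2 F)) (g ∙ fb 1)) = sqv (g ∙ fb 1) := by
    rw [wd_comm (g ∙ eb 0) (g ∙ fb 1), wd_comm (g ∙ fb 0) (g ∙ fb 1),
      wd_wd (by rw [B_ac, B_fb_eb_ne h01.symm]) (by rw [B_ac, B_fb_fb]), B_ac, B_eb_fb, hm1, one_smul]
  rw [ac_gam0 (gam0 g), gam0_eb0, gam0_eb1, gam0_fb0, gam0_fb1, e1, e2, e3, e4]

section Perfect

variable [PerfectRing F 2]

/-- the Frobenius automorphism of `Sp_4(F)` -/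
noncomputable def frS : Sp 2 F ≃* Sp 2 F := Cfsg.Agent.Lib.Helper1.PSpAut.fldS (frobeniusEquiv F 2)

theorem frS_val (g : Sp 2 F) (i j : Fin 2 ⊕ Fin 2) : (frS g).1 i j = g.1 i j ^ 2 := by
  rw [frS, Cfsg.Agent.Lib.Helper1.PSpAut.fldS_val, Matrix.map_apply, frobeniusEquiv_apply,
    frobenius_def]

theorem gam_gam (g : Sp 2 F) : gam (gam g) = frS g := by
  apply sp_ext
  intro x
  rw [gam_apply, gam_apply, ac_gam0_gam0]
  apply ext4 <;> simp only [Pi.add_apply, Pi.smul_apply, smul_eq_mul, sqv_apply, ac_eb_apply,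
    ac_fb_apply] <;> simp only [ac4, frS_val] <;> ring

theorem gam_injective : Function.Injective (gam : Sp 2 F →* Sp 2 F) := by
  intro x y h
  apply frS.injective
  rw [← gam_gam, ← gam_gam, h]

theorem gam_surjective : Function.Surjective (gam : Sp 2 F →* Sp 2 F) := by
  intro y
  obtain ⟨x, rfl⟩ := frS.surjective y
  exact ⟨gam x, gam_gam x⟩

/-- the exceptional automorphism of `Sp_4(F)` -/
noncomputable def gamE : Sp 2 F ≃* Sp 2 F :=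
  MulEquiv.ofBijective gam ⟨gam_injective, gam_surjective⟩

theorem gamE_apply (g : Sp 2 F) : gamE g = gam g := rfl

/-- the exceptional automorphism of `PSp_4(F)` -/
noncomputable def gamP : MulAut (Cfsg.PSp 2 F) := Cfsg.Agent.Lib.Helper1.PSpAut.autQ gamE

theorem gamP_pm (g : Sp 2 F) : gamP (pm g) = pm (gam g) := rfl

theorem gamP_sq : (gamP * gamP : MulAut (Cfsg.PSp 2 F)) =
    Cfsg.Agent.Lib.Helper1.PSpAut.fl (frobeniusEquiv F 2) := by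
  ext x
  obtain ⟨x, rfl⟩ := pm_surjective x
  rw [MulAut.mul_apply, gamP_pm, gamP_pm, gam_gam]
  rfl

end Perfect

/-! ### root elements -/

theorem wd_eb0_eb1 : wd (eb 0 : V 2 F) (eb 1) = eb 0 := by
  apply ext4 <;> simp [wd_1, wd_2, wd_3, wd_4, eb]
theorem wd_eb0_fb1 : wd (eb 0 : V 2 F) (fb 1) = eb 1 := by
  apply ext4 <;> simp [wd_1, wd_2, wd_3, wd_4, eb, fb]
theorem wd_fb0_fb1 : wd (fb 0 : V 2 F) (fb 1) = fb 0 := by
  apply ext4 <;> simp [wd_1, wd_2, wd_3, wd_4, fb]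
theorem wd_eb1_fb0 : wd (eb 1 : V 2 F) (fb 0) = fb 1 := by
  apply ext4 <;> simp [wd_1, wd_2, wd_3, wd_4, eb, fb]

theorem gam_tv (a : F) : gam (tv (eb 0 : V 2 F) a) = sg (eb 0) (a • eb 1) 0 := by
  have h01 := zero_ne_one_fin2
  apply sp_ext
  intro x
  rw [gam_apply, ac_gam0, ac_sg (by rw [B_smul_left, B_eb_eb, mul_zero])]
  simp only [ac_tv, B_eb_eb, B_fb_eb, B_fb_eb_ne h01.symm, mul_zero, mul_one, zero_smul, add_zero,
    wd_add_left, wd_add_right, wd_smul_left, wd_smul_right, wd_eb0_eb1, wd_eb0_fb1, wd_fb0_fb1,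
    wd_eb1_fb0, wd_comm (eb 1 : V 2 F) (eb 0), B_smul_right, B_eb_right]
  apply ext4 <;> simp [eb, fb] <;> ring

end Cfsg.Agent.Lib.Helper18.AutPSp
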