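import Mathlib
import Cfsg.Agent.Lib.Helper18.Sp4.Gamma
import Cfsg.Agent.Lib.Helper18.AutPSp.PG

set_option autoImplicit false

/-!
`Aut(PSp_4(2^f))`: the subgroup `PΓSp_4` has index two.
-/

namespace Cfsg.Agent.Lib.Helper18.AutPSp

open Matrix Cfsg.Agent.Lib.Helper17

variable {F : Type*} [Field F] [CharP F 2]

theorem sylCentral_form [Fintype F] {m : ℕ} (hm : 2 ≤ m) {i j : Fin m} (hij : i ≠ j)
    {z : Cfsg.PSp m F} (h : IsSylCentral 2 z) :
    ∃ (g : Cfsg.PSp m F) (c b : F), z = g * pm (sg (eb i) (c • eb j) b) * g⁻¹ := by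
  obtain ⟨-, P, hz, hc⟩ := h
  have hm1 : 1 ≤ m := by omega
  obtain ⟨P₀, hA, hB⟩ := exists_sylow_ge (F := F) 2 hij
  obtain ⟨g, hg⟩ := MulAction.exists_smul_eq (Cfsg.PSp m F) P₀ P
  have hmem : ∀ y, y ∈ P₀ → g * y * g⁻¹ ∈ P := by
    intro y hy
    rw [← hg]
    show g * y * g⁻¹ ∈ ((g • P₀ : Sylow 2 _) : Subgroup (Cfsg.PSp m F))
    rw [Sylow.coe_subgroup_smul]
    exact Subgroup.smul_mem_pointwise_smul y (MulAut.conj g) _ hy
  have hcomm : ∀ y ∈ P₀, y * (g⁻¹ * z * g) = (g⁻¹ * z * g) * y := by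
    intro y hy
    have := hc _ (hmem y hy)
    calc y * (g⁻¹ * z * g) = g⁻¹ * ((g * y * g⁻¹) * z) * g := by group
      _ = g⁻¹ * (z * (g * y * g⁻¹)) * g := by rw [this]
      _ = (g⁻¹ * z * g) * y := by group
  have hzz : z = g * (g⁻¹ * z * g) * g⁻¹ := by group
  set z' := g⁻¹ * z * g with hz'
  obtain ⟨y₀, b₀, hy₀, hz0, h2⟩ := central_form 2 hm1 (eb_ne_zero i) z' (fun y hy => hcomm y (hA hy))
  have key : ∀ y', B y' (eb i) = 0 → B y' (eb j) = 0 → ∀ b' : F,
      ∃ c : F, B y₀ (eb j) • (y' + b' • eb j) + B y₀ y' • eb j = c • (eb i : V m F) := by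
    intro y' h1 h2 b'
    have h3 := hcomm _ (hB ⟨y', ⟨h1, h2⟩, b', rfl⟩)
    rw [hz0] at h3
    have h5 := conj_eq_of_pm_commute 2 hm1 (sg_pow_char 2 hy₀ b₀) h3.symm
    have h6 : sg (eb j) y' b' ∙ (eb i : V m F) = eb i := by
      rw [ac_sg h2, B_eb_eb, zero_smul, add_zero, B_eq_zero_comm.1 h1, zero_smul, add_zero]
    rw [sg_conj, h6] at h5
    obtain ⟨c, hc⟩ := sg_eq_imp (eb_ne_zero i) hy₀ (by rw [B_ac_fix h6, hy₀]) h5
    refine ⟨c, ?_⟩
    rw [ac_sg h2, add_assoc] at hc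
    exact add_left_cancel hc
  have h5 : B y₀ (eb j) = 0 := by
    obtain ⟨c, hc⟩ := key 0 (B_zero_left _) (B_zero_left _) 1
    have h6 := congrArg (fun x => B (fb j) x) hc
    simpa only [B_add_right, B_smul_right, B_fb_eb, B_zero_right, B_fb_eb_ne hij.symm, mul_zero,
      mul_one, add_zero, zero_add] using h6
  have h6 : ∀ y', B y' (eb i) = 0 → B y' (eb j) = 0 → B y' y₀ = 0 := by
    intro y' h1 h2
    obtain ⟨c, hc⟩ := key y' h1 h2 0
    have h6 := congrArg (fun x => B (fb j) x) hc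
    rw [B_eq_zero_comm]
    simpa only [h5, zero_smul, B_add_right, B_smul_right, B_fb_eb, B_zero_right,
      B_fb_eb_ne hij.symm, mul_zero, mul_one, add_zero, zero_add] using h6
  obtain ⟨c₁, c₂, hcc⟩ := mem_span_two_of_perp _ _ _ h6
  have h7 : B (c₂ • eb j : V m F) (eb i) = 0 := by rw [B_smul_left, B_eb_eb, mul_zero]
  rw [hcc, add_comm, sg_add_smul h7] at hz0
  exact ⟨g, c₂, _, by rw [← hz0]; exact hzz⟩

theorem not_noFour_sg2 {m : ℕ} {i j : Fin m} (hij : i ≠ j) {c b : F}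
    (hc : c ≠ 0) (hb : b ≠ 0) : ¬ NoFour (pm (sg (eb i : V m F) (c • eb j) b)) := by
  intro hN
  obtain ⟨A, hA⟩ := sp_witt_frame m ![(eb i : V m F), eb j] ![(eb j : V m F), fb i] (by
      rw [LinearIndependent.pair_iff]
      intro s t hst
      have h1 := congrArg (fun z => B (fb i) z) hst
      have h2 := congrArg (fun z => B (fb j) z) hst
      simp only [B_add_right, B_smul_right, B_fb_eb, B_fb_eb_ne hij, B_fb_eb_ne hij.symm,
        B_zero_right, mul_zero, mul_one, add_zero, zero_add] at h1 h2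
      exact ⟨h1, h2⟩) (by
      rw [LinearIndependent.pair_iff]
      intro s t hst
      have h1 := congrArg (fun z => B (fb j) z) hst
      have h2 := congrArg (fun z => B (eb i) z) hst
      simp only [B_add_right, B_smul_right, B_fb_eb, B_fb_fb, B_eb_eb, B_eb_fb,
        B_zero_right, mul_zero, mul_one, add_zero, zero_add, mul_neg, neg_eq_zero] at h1 h2
      exact ⟨h1, h2⟩) (by
      intro a b
      fin_cases a <;> fin_cases b
      · show B (eb j : V m F) (eb j) = B (eb i : V m F) (eb i)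
        rw [B_self, B_self]
      · show B (eb j : V m F) (fb i) = B (eb i : V m F) (eb j)
        rw [B_eb_fb_ne hij.symm, B_eb_eb]
      · show B (fb i : V m F) (eb j) = B (eb j : V m F) (eb i)
        rw [B_fb_eb_ne hij, B_eb_eb]
      · show B (fb i : V m F) (fb i) = B (eb j : V m F) (eb j)
        rw [B_self, B_self])
  have hA0 : A ∙ (eb i : V m F) = eb j := hA 0
  have hA1 : A ∙ (eb j : V m F) = fb i := hA 1
  have hy : B (c • eb j : V m F) (eb i) = 0 := by rw [B_smul_left, B_eb_eb, mul_zero]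
  have hy' : B (c • fb i : V m F) (eb j) = 0 := by rw [B_smul_left, B_fb_eb_ne hij, mul_zero]
  set s := sg (eb i : V m F) (c • eb j) b with hs
  set s' := sg (eb j : V m F) (c • fb i) b with hs'
  have hconj : A * s * A⁻¹ = s' := by rw [hs, sg_conj, hA0, ac_smul, hA1]
  have h1 := hN (pm A)
  rw [← pm_inv, ← pm_mul, ← pm_mul, hconj, ← pm_mul, ← pm_mul, ← pm_pow] at h1
  have hs2 : s * s = 1 := by rw [← sq, hs, sg_pow_char 2 hy]
  have hs'2 : s' * s' = 1 := by rw [← sq, hs', sg_pow_char 2 hy']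
  have hs'e : s' ∙ (eb i : V m F) = eb i - c • eb j := by
    rw [hs', ac_sg hy', B_eb_eb, zero_smul, add_zero, B_smul_right, B_eb_fb]
    module
  have hs'f : s' ∙ (eb j : V m F) = eb j := by
    rw [hs', ac_sg hy', B_eb_eb, zero_smul, add_zero, B_smul_right, B_eb_fb_ne hij.symm, mul_zero,
      zero_smul, add_zero]
  set s₂ := sg (eb i - c • eb j : V m F) (c • eb j) b with hs₂
  have e1 : s' * s * s'⁻¹ = s₂ := by
    rw [hs, sg_conj, hs'e, ac_smul, hs'f]
  have hy2 : B (c • eb j : V m F) (eb i - c • eb j) = 0 := by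
    simp only [B_sub_right, B_smul_left, B_smul_right, B_eb_eb, mul_zero, sub_zero]
  have hs₂2 : s₂ * s₂ = 1 := by rw [← sq, hs₂, sg_pow_char 2 hy2]
  have hs₂e : s₂ ∙ (eb i : V m F) = eb i := by
    rw [hs₂, ac_sg hy2]
    simp only [B_sub_right, B_smul_right, B_eb_eb, mul_zero, sub_zero, zero_smul, add_zero]
  have hs₂f : s₂ ∙ (eb j : V m F) = eb j := by
    rw [hs₂, ac_sg hy2]
    simp only [B_sub_right, B_smul_right, B_eb_eb, mul_zero, sub_zero, zero_smul, add_zero]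
  have e5 : s₂ * s * s₂⁻¹ = s := by
    rw [hs, sg_conj, hs₂e, ac_smul, hs₂f]
  have e6 : s₂ * s = s * s₂ := mul_inv_eq_iff_eq_mul.1 e5
  have e2 : (s * s') ^ 2 = s * s₂ := by
    have : s'⁻¹ = s' := inv_eq_of_mul_eq_one_left hs'2
    rw [← e1, this, sq]
    group
  have e3 : (s * s') ^ 4 = 1 := by
    rw [show 4 = 2 * 2 from rfl, pow_mul, e2, sq]
    calc s * s₂ * (s * s₂) = s * (s₂ * s) * s₂ := by group
      _ = s * s * (s₂ * s₂) := by rw [e6]; group
      _ = 1 := by rw [hs2, hs₂2, one_mul]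
  have h2 := pm_injective_two (h1 (by rw [e3]; rfl))
  have h3 : s₂ = s := by
    rw [← e1, ← h2]
    group
  have h4 := congrArg (fun g => B (fb i) (g ∙ (fb j : V m F))) h3
  simp only [hs, hs₂, ac_sg hy, ac_sg hy2, B_add_right, B_sub_right, B_smul_right, B_fb_eb,
    B_fb_fb, B_fb_eb_ne hij, B_fb_eb_ne hij.symm] at h4
  have h5 : c * b = 0 := by linear_combination -h4
  rcases mul_eq_zero.1 h5 with h6 | h6
  · exact hc h6
  · exact hb h6

omit [CharP F 2] in
theorem TvP.of_fwd [Finite F] {m : ℕ} {β : MulAut (Cfsg.PSp m F)} (h : ∀ t, IsTv t → IsTv (β t)) :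
    TvP β := by
  refine ⟨h, ?_⟩
  intro t ht
  let φ : {t : Cfsg.PSp m F // IsTv t} → {t : Cfsg.PSp m F // IsTv t} := fun t => ⟨β t.1, h _ t.2⟩
  have hinj : Function.Injective φ :=
    fun a b hab => Subtype.ext (β.injective (congrArg Subtype.val hab))
  obtain ⟨⟨t', ht'⟩, h1⟩ := Finite.surjective_of_injective hinj ⟨t, ht⟩
  have h2 : β t' = t := congrArg Subtype.val h1
  rw [← h2]
  simpa using ht'

theorem isTv_one {m : ℕ} : IsTv (1 : Cfsg.PSp m F) := ⟨0, 0, by rw [tv_zero]; rfl⟩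

/-- in characteristic two all nontrivial transvections are conjugate -/
theorem tvP_of_one [Finite F] {m : ℕ} {β : MulAut (Cfsg.PSp m F)} {v : V m F} {a : F}
    (hv : v ≠ 0) (ha : a ≠ 0) (h : IsTv (β (pm (tv v a)))) : TvP β := by
  apply TvP.of_fwd
  rintro _ ⟨w, b, rfl⟩
  by_cases hw : w = 0
  · rw [hw, tv_zero_left, pm_one, map_one]
    exact isTv_one
  by_cases hb : b = 0
  · rw [hb, tv_zero, pm_one, map_one]
    exact isTv_one
  obtain ⟨l, hl⟩ := (frobeniusEquiv F 2).surjective (b / a)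
  rw [frobeniusEquiv_apply, frobenius_def] at hl
  have hl0 : l ≠ 0 := by
    rintro rfl
    rw [zero_pow two_ne_zero] at hl
    exact (div_ne_zero hb ha) hl.symm
  obtain ⟨g, hg⟩ := exists_ac_eq hv (smul_ne_zero hl0 hw)
  have h1 : tv w b = g * tv v a * g⁻¹ := by
    rw [tv_conj, hg, tv_smul, hl, div_mul_cancel₀ _ ha]
  rw [h1, pm_mul, pm_mul, pm_inv, map_mul, map_mul, map_inv]
  exact h.conj _

section Fin

variable [Fintype F]

theorem isT_dich {z : Cfsg.PSp 2 F} (h : IsT 2 z) : IsTv z ∨ IsTv (gamP⁻¹ z) := by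
  obtain ⟨g, c, b, rfl⟩ := sylCentral_form (le_refl 2) zero_ne_one_fin2 h.1
  have hN : NoFour (pm (sg (eb 0 : V 2 F) (c • eb 1) b)) := by
    have := (h.2 rfl).map (MulAut.conj g⁻¹)
    rw [MulAut.conj_apply, inv_inv] at this
    convert this using 1
    group
  by_cases hc : c = 0
  · left
    apply IsTv.conj
    rw [hc, zero_smul, sg_zero]
    exact ⟨_, _, rfl⟩
  · by_cases hb : b = 0
    · right
      rw [map_mul, map_mul, map_inv]
      apply IsTv.conj
      rw [hb, ← gam_tv, ← gamP_pm, MulAut.inv_apply_self]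
      exact ⟨_, _, rfl⟩
    · exact absurd hN (not_noFour_sg2 zero_ne_one_fin2 hc hb)

theorem aut_dich (β : MulAut (Cfsg.PSp 2 F)) : TvP β ∨ TvP (gamP⁻¹ * β) := by
  have h0 : IsT 2 (pm (tv (eb 0 : V 2 F) 1)) :=
    ⟨isSylCentral_tv 2 (by norm_num) (eb_ne_zero 0) one_ne_zero, fun _ => noFour_tv _ _⟩
  rcases isT_dich (h0.map β) with h | h
  · left
    exact tvP_of_one (eb_ne_zero 0) one_ne_zero h
  · right
    exact tvP_of_one (eb_ne_zero 0) one_ne_zero (by rw [MulAut.mul_apply]; exact h)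

end Fin

theorem not_isTv_sg {c : F} (hc : c ≠ 0) : ¬ IsTv (pm (sg (eb 0 : V 2 F) (c • eb 1) 0)) := by
  rintro ⟨v, a, h⟩
  have h01 := zero_ne_one_fin2
  have h1 := pm_injective_two h
  have hy : B (c • eb 1 : V 2 F) (eb 0) = 0 := by rw [B_smul_left, B_eb_eb, mul_zero]
  have h2 := congrArg (fun g => g ∙ (fb 0 : V 2 F)) h1
  simp only [ac_sg hy, ac_tv, B_fb_eb, B_smul_right, B_fb_eb_ne h01, mul_zero, zero_smul, add_zero,
    one_smul] at h2
  have h3 : c • (eb 1 : V 2 F) = (a * B (fb 0) v) • v := add_left_cancel h2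
  have h4 := congrArg (fun x => B (fb 0) x) h3
  simp only [B_smul_right, B_fb_eb_ne h01, mul_zero] at h4
  have h5 : a * B (fb 0) v = 0 := by
    rcases mul_eq_zero.1 h4.symm with h6 | h6
    · exact h6
    · rw [h6, mul_zero]
  rw [h5, zero_smul] at h3
  rcases smul_eq_zero.1 h3 with h6 | h6
  · exact hc h6
  · exact eb_ne_zero 1 h6

section Fin2

variable {F : Type*} [Field F] [CharP F 2] [Fintype F]

theorem gamP_not_mem : (gamP : MulAut (Cfsg.PSp 2 F)) ∉ Cfsg.gammaPSp 2 F := by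
  intro h
  apply not_isTv_sg (F := F) one_ne_zero
  have := (tvP_of_mem_gamma h).fwd _ ⟨eb 0, 1, rfl⟩
  rwa [gamP_pm, gam_tv] at this

theorem index_gamma : (Cfsg.gammaPSp 2 F).index = 2 := by
  rw [Subgroup.index_eq_two_iff]
  refine ⟨gamP, fun b => ?_⟩
  rcases aut_dich b⁻¹ with h | h
  · have h1 : b ∈ Cfsg.gammaPSp 2 F := by
      have := (mem_gamma_iff 2 (le_refl 2)).2 h
      exact inv_mem_iff.1 this
    right
    refine ⟨h1, fun h2 => gamP_not_mem (F := F) ?_⟩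
    have := mul_mem (inv_mem h1) h2
    rwa [inv_mul_cancel_left] at this
  · have h1 : b * gamP ∈ Cfsg.gammaPSp 2 F := by
      have := (mem_gamma_iff 2 (le_refl 2)).2 h
      rw [← _root_.mul_inv_rev] at this
      exact inv_mem_iff.1 this
    left
    refine ⟨h1, fun h2 => gamP_not_mem (F := F) ?_⟩
    have := mul_mem (inv_mem h2) h1
    rwa [inv_mul_cancel_left] at this

/-- the square of every automorphism of `PSp_4(2^f)` lies in `PΓSp_4` -/
theorem mul_self_mem_gamma (β : MulAut (Cfsg.PSp 2 F)) : β * β ∈ Cfsg.gammaPSp 2 F :=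
  Subgroup.mul_self_mem_of_index_two index_gamma β

/-- an automorphism of `PSp_4(2^f)` mapping one nontrivial transvection to a transvection lies in
`PΓSp_4` -/
theorem mem_gamma_of_one {β : MulAut (Cfsg.PSp 2 F)} {v : V 2 F} {a : F}
    (hv : v ≠ 0) (ha : a ≠ 0) (h : IsTv (β (pm (tv v a)))) : β ∈ Cfsg.gammaPSp 2 F :=
  (mem_gamma_iff 2 (le_refl 2)).2 (tvP_of_one hv ha h)

theorem card_aut_sp4 {f : ℕ} (hF : Fintype.card F = 2 ^ f) :
    Nat.card (MulAut (Cfsg.PSp 2 F)) = 2 * f * Nat.card (Cfsg.PSp 2 F) := by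
  rw [← Subgroup.card_mul_index (Cfsg.gammaPSp 2 F), index_gamma, card_gamma hF (le_refl 2)]
  have h1 : Nat.gcd 2 (2 ^ f - 1) = 1 := by
    rcases Nat.eq_zero_or_pos f with rfl | hf
    · have := Fintype.one_lt_card (α := F)
      rw [hF] at this
      simp at this
    · have h2 : 2 ∣ 2 ^ f := dvd_pow_self 2 hf.ne'
      have h3 : 0 < 2 ^ f := by positivity
      have h4 : (2 ^ f - 1) % 2 = 1 := by omega
      exact Nat.coprime_two_left.2 (Nat.odd_iff.2 h4)
  rw [h1]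
  ring

end Fin2

end Cfsg.Agent.Lib.Helper18.AutPSp
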