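import Mathlib
import Cfsg.Agent.Lib.Helper18.Sp4.Dich

set_option autoImplicit false

/-!
`Out(PSp_4(2^f))` is cyclic of order `2f`.
-/

namespace Cfsg.Agent.Lib.Helper18.AutPSp

open Matrix Cfsg.Agent.Lib.Helper17
open Cfsg.Agent.Lib.Helper1.PSpAut (cG fl)

theorem orderOf_frobeniusEquiv {F : Type*} [Field F] [Fintype F] {p f : ℕ} [Fact p.Prime] [CharP F p]
    (hF : Fintype.card F = p ^ f) : orderOf (frobeniusEquiv F p : F ≃+* F) = f := by
  let _ : Algebra (ZMod p) F := ZMod.algebra F p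
  have hfin : Module.finrank (ZMod p) F = f := by
    have h1 := Module.card_eq_pow_finrank (K := ZMod p) (V := F)
    rw [hF, ZMod.card] at h1
    exact (Nat.pow_right_injective (Fact.out : p.Prime).two_le h1).symm
  let ι : (F ≃ₐ[ZMod p] F) →* (F ≃+* F) :=
    { toFun := fun σ => σ.toRingEquiv
      map_one' := rfl
      map_mul' := fun _ _ => rfl }
  have hι : Function.Injective ι := by
    intro a b h
    ext x
    exact congrArg (fun φ : F ≃+* F => φ x) h
  have h1 : ι (FiniteField.frobeniusAlgEquivOfAlgebraic (ZMod p) F) = frobeniusEquiv F p := by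
    ext x
    show x ^ Fintype.card (ZMod p) = _
    rw [ZMod.card, frobeniusEquiv_apply, frobenius_def]
  rw [← h1, orderOf_injective ι hι, FiniteField.orderOf_frobeniusAlgEquivOfAlgebraic, hfin]

variable {F : Type*} [Field F] [Fintype F]

theorem out_sp4 {f : ℕ} (hF : Fintype.card F = 2 ^ f) :
    IsCyclic (Cfsg.Out (Cfsg.PSp 2 F)) ∧ Nat.card (Cfsg.Out (Cfsg.PSp 2 F)) = 2 * f := by
  have hchar : CharP F 2 := charP_of_card_eq_prime_pow hF
  have hrc : ringChar F = 2 := ringChar.eq F 2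
  have hInn : (cG : ↥(Cfsg.GSp 2 F) →* _).range = Cfsg.Inn (Cfsg.PSp 2 F) :=
    Cfsg.Agent.Lib.Helper1.PSpAut.range_eq_inn_of_char_two (by norm_num) hrc
  have hcardInn : Nat.card (Cfsg.Inn (Cfsg.PSp 2 F)) = Nat.card (Cfsg.PSp 2 F) := by
    rw [← hInn, card_range_cG (by norm_num)]
    exact Nat.card_congr (Equiv.ofBijective pm ⟨pm_injective_two, pm_surjective⟩)
  have hcard : Nat.card (Cfsg.Out (Cfsg.PSp 2 F)) = 2 * f := by
    have h1 := Subgroup.card_mul_index (Cfsg.Inn (Cfsg.PSp 2 F))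
    rw [card_aut_sp4 hF, hcardInn, mul_comm] at h1
    exact Nat.eq_of_mul_eq_mul_right Nat.card_pos h1
  refine ⟨?_, hcard⟩
  set φ : F ≃+* F := frobeniusEquiv F 2 with hφ
  have hord : orderOf φ = f := orderOf_frobeniusEquiv hF
  set x : Cfsg.Out (Cfsg.PSp 2 F) := QuotientGroup.mk gamP with hx
  have hsq : ∀ j : ℕ, (gamP : MulAut (Cfsg.PSp 2 F)) ^ (2 * j) = fl (φ ^ j) := by
    intro j
    rw [pow_mul, sq, gamP_sq, map_pow]
  have hflmem : ∀ σ : F ≃+* F, (fl σ : MulAut (Cfsg.PSp 2 F)) ∈ Cfsg.gammaPSp 2 F :=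
    fun σ => (mem_gamma_iff 2 (le_refl 2)).2 (tvP_fl σ)
  have hInnle : Cfsg.Inn (Cfsg.PSp 2 F) ≤ Cfsg.gammaPSp 2 F := by
    rw [← hInn]
    rintro _ ⟨g, rfl⟩
    exact (mem_gamma_iff 2 (le_refl 2)).2 (tvP_cG g)
  have key : ∀ k : ℕ, x ^ k = 1 → 2 * f ∣ k := by
    intro k hk
    have h1 : (gamP : MulAut (Cfsg.PSp 2 F)) ^ k ∈ Cfsg.Inn (Cfsg.PSp 2 F) := by
      rw [← QuotientGroup.eq_one_iff]
      exact hk
    rcases Nat.even_or_odd' k with ⟨j, rfl | rfl⟩
    · rw [hsq, ← hInn] at h1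
      obtain ⟨g, hg⟩ := h1
      have h2 := sigma_eq_one_of_cG_eq_fl 2 (by norm_num) hg
      have h3 := orderOf_dvd_of_pow_eq_one h2
      rw [hord] at h3
      exact Nat.mul_dvd_mul_left 2 h3
    · exfalso
      have h2 := hInnle h1
      rw [pow_succ, hsq] at h2
      apply gamP_not_mem (F := F)
      have := mul_mem (inv_mem (hflmem (φ ^ j))) h2
      rwa [inv_mul_cancel_left] at this
  have h1 : 2 * f ∣ orderOf x := key _ (pow_orderOf_eq_one x)
  have h2 : orderOf x ∣ 2 * f := by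
    rw [← hcard]
    exact orderOf_dvd_natCard x
  exact isCyclic_of_orderOf_eq_card x (by rw [hcard]; exact Nat.dvd_antisymm h2 h1)

end Cfsg.Agent.Lib.Helper18.AutPSp
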